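import Cfsg.Agent.H15.NS.ONB.C0
import Cfsg.Agent.H15.NS.ONB.C1
import Cfsg.Agent.H18.PA0
import Cfsg.Agent.H15.NS3

/-! Generated by tools/h15/ns/gen.py (kit tools/h0/tr). -/

set_option maxRecDepth 100000
set_option maxHeartbeats 0

namespace H15.NS.ON
open H16 H0.TR
open scoped commutatorElement

theorem a4 : ∀ i < 10, (lnkEnt (wdsP (wdsP H16.TON.P tW) tW) H16.TON.P H16.TON.B) i = 0 := allZ_sound0 a4_0
theorem mVk : ∀ i < 6, (lnkEnt (wdsP P mW) (wdsP P mV) H16.TON.B) i = 0 := allZ_sound0 mVk_0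
theorem res_0 : ∀ i < 13920, (resEnt (twoP 122760 (wdsP P mW) (wdsP P mV)) Tm E EI (nat_lit 245520) (nat_lit 13920) (nat_lit 0)) i = 0 := range_glue (range_glue (range_glue (range_glue (allZ_sound0 res_0_0) res_0_1) res_0_2) res_0_3) res_0_4
theorem res_1 : ∀ i < 13920, (resEnt (twoP 122760 (wdsP P mW) (wdsP P mV)) Tm E EI (nat_lit 245520) (nat_lit 13920) (nat_lit 1)) i = 0 := range_glue (range_glue (range_glue (range_glue (range_glue (allZ_sound0 res_1_0) res_1_1) res_1_2) res_1_3) res_1_4) res_1_5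
theorem res_2 : ∀ i < 13920, (resEnt (twoP 122760 (wdsP P mW) (wdsP P mV)) Tm E EI (nat_lit 245520) (nat_lit 13920) (nat_lit 2)) i = 0 := range_glue (range_glue (range_glue (range_glue (range_glue (allZ_sound0 res_2_0) res_2_1) res_2_2) res_2_3) res_2_4) res_2_5
theorem res_3 : ∀ i < 13920, (resEnt (twoP 122760 (wdsP P mW) (wdsP P mV)) Tm E EI (nat_lit 245520) (nat_lit 13920) (nat_lit 3)) i = 0 := range_glue (range_glue (range_glue (range_glue (allZ_sound0 res_3_0) res_3_1) res_3_2) res_3_3) res_3_4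
theorem res_4 : ∀ i < 13920, (resEnt (twoP 122760 (wdsP P mW) (wdsP P mV)) Tm E EI (nat_lit 245520) (nat_lit 13920) (nat_lit 4)) i = 0 := range_glue (range_glue (range_glue (range_glue (allZ_sound0 res_4_0) res_4_1) res_4_2) res_4_3) res_4_4
theorem res_5 : ∀ i < 13920, (resEnt (twoP 122760 (wdsP P mW) (wdsP P mV)) Tm E EI (nat_lit 245520) (nat_lit 13920) (nat_lit 5)) i = 0 := range_glue (range_glue (range_glue (range_glue (range_glue (allZ_sound0 res_5_0) res_5_1) res_5_2) res_5_3) res_5_4) res_5_5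
theorem res : ∀ k < 6, ∀ i < 13920, (resEnt (twoP 122760 (wdsP P mW) (wdsP P mV)) Tm E EI (nat_lit 245520) (nat_lit 13920)) k i = 0 :=
  letters_glue (letters_glue (letters_glue (letters_glue (letters_glue (letters_glue (letters_nil) res_0) res_1) res_2) res_3) res_4) res_5
theorem lo_act {G Ω : Type*} [Group G] [MulAction G Ω] {g : ℕ → G} {pt : ℕ → Ω} {A : Subgroup G} {c : ℕ}
    (M : Rm A g pt Tm 13920 6 B1 c) : Act (wds g lo_W) pt lo_P 13920 6 :=
  M.wact lo_lt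
theorem lol0_e : ∀ i < 479, (dent lol0 lo_P (nat_lit 13920)) i = 0 := allZ_sound0 lol0_e_0
theorem lol0_ok : DOK lol0 lo_P 13920 := ⟨lol0_h, lol0_e⟩
theorem lol1_e : ∀ i < 167, (dent lol1 lo_P (nat_lit 13920)) i = 0 := allZ_sound0 lol1_e_0
theorem lol1_ok : DOK lol1 lo_P 13920 := ⟨lol1_h, lol1_e⟩
theorem lol2_e : ∀ i < 3, (dent lol2 lo_P (nat_lit 13920)) i = 0 := allZ_sound0 lol2_e_0
theorem lol2_ok : DOK lol2 lo_P 13920 := ⟨lol2_h, lol2_e⟩
theorem lo_low {G Ω : Type*} [Group G] [MulAction G Ω] {g : ℕ → G} {pt : ℕ → Ω} {A : Subgroup G} {c : ℕ}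
    (M : Rm A g pt Tm 13920 6 B1 c) : SLow (gi (wds g lo_W)) pt 13920 [lol0, lol1, lol2] :=
  (((SLow.nil).cons lol2_ok (lo_act M) lo_f2).cons lol1_ok (lo_act M) lo_f1).cons lol0_ok (lo_act M) lo_f0
theorem lo_card {G Ω : Type*} [Group G] [MulAction G Ω] {g : ℕ → G} {pt : ℕ → Ω} {A : Subgroup G} {c : ℕ}
    (M : Rm A g pt Tm 13920 6 B1 c) : 322560 ≤ Nat.card (gen (wds g lo_W) 6) :=
  by
    have := M.fin
    have := (lo_low M).card_ge M.inj
    rwa [lo_c.1, lo_c.2, gen_gi] at this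
structure Cx {G Ω : Type*} [Group G] [MulAction G Ω] (g : ℕ → G) (pt : ℕ → Ω) : Prop where
  M : Md g pt P 245520 11 H16.TON.B 921631011840
  i : (gen g 10).index = 2
  hb : Nat.card (gen g 10 ⊓ Subgroup.centralizer {g 3} : Subgroup G) ≤ 241920
noncomputable abbrev m {G : Type*} [Group G] (g : ℕ → G) : ℕ → G := wds g mW
noncomputable abbrev pl {Ω : Type*} (pt : ℕ → Ω) : ℕ → Ω := fun i => pt (E i)

open Subgroup H19
variable {G Ω : Type*} [Group G] [Finite G] [MulAction G Ω] {g : ℕ → G} {pt : ℕ → Ω}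
section
variable (X : Cx g pt)
include X
theorem SG : Bm G pt 245520 H16.TON.B :=
  mdb X.M
theorem am : Act (m g) pt (wdsP P mW) 245520 6 :=
  X.M.wact m_lt
theorem amM : Act (m g) pt (wdsP P mW) 245520 5 :=
  (am X).mono (by decide)
theorem R0 : Rm (gen (m g) 6) (m g) (pl pt) Tm 13920 6 B1 (Nat.card (gen (m g) 6)) :=
  rm0 X.M (act_two (am X) ((SG X).link (am X) (X.M.wact mV_lt) mVk)) (by decide) res resb
theorem SL : Bm G (pl pt) 13920 B1 :=
  (R0 X).toBm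
theorem aL : Act (m g) (pl pt) Tm 13920 6 :=
  (R0 X).act
theorem aM : Act (m g) (pl pt) Tm 13920 5 :=
  (aL X).mono (by decide)
theorem up {A : Subgroup G} (h : gen (m g) 6 ≤ A) (k : #A ≤ 322560) : Rm A (m g) (pl pt) Tm 13920 6 B1 322560 :=
  (R0 X).up h k ((R0 X).le lo_lt _) (lo_card (R0 X))
end
theorem ex : ∃ (Y Ω : Type) (_ : Group Y) (_ : MulAction Y Ω) (γ : ℕ → Y) (pt : ℕ → Ω), Cx γ pt ∧ Nonempty (gen γ 10 ≃* gen H16.TON.g 10) := by
  obtain ⟨_, g, M, u⟩ := exists_md H16.TON.act H16.TON.inj H16.TON.card H16.TON.isBase ⟨H16.TON.Blt, by decide⟩ (.refl _)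
  obtain ⟨τ, h⟩ := aut_of_rels H16.TON.act H16.TON.Blt H16.TON.isBase H16.TON.gen_eq H16.PON.card H16.PON.rels H16.PON.bound H16.PON.simple a1 a2
    ⟨by decide, H16.TON.act.ne_one H16.TON.inj a3⟩
  obtain ⟨Y, Ω, _, _, γ, pt, M', i, e, he⟩ := md_dbl' M τ tW_lt (fun k hk => Subtype.ext (by
    rw [show g k = ⟨_, mem_gen H16.TON.g hk⟩ from Subtype.ext (u k hk)]
    exact (h k hk).trans (Up.wds u tW_lt 10 k hk).symm)) a4 a5 a6
  have := M'.fin
  exact ⟨Y, Ω, _, _, γ, pt, ⟨M', i, (cent_tr e (mem_gen γ (by decide)) ((congrArg Subtype.val (he 3 (by decide))).trans (u 3 (by decide)))).trans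
    H18.PA.bound⟩, ⟨e⟩⟩

end H15.NS.ON
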